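import Mathlib

set_option autoImplicit false
set_option linter.unusedVariables false

namespace Cfsg.Agent.Lib.Helper7

/-- A group of order 216 with centre of order 3, acting transitively with a quaternion
subgroup fixing a point and acting freely elsewhere, is `3^{1+2} : Q_8` modulo its centre. -/
theorem frob_nine {G : Type*} [Group G] [Finite G] {Ω : Type*} [MulAction G Ω] [Finite Ω]
    [MulAction.IsPretransitive G Ω]
    (hG : Nat.card G = 216) (hZ : Nat.card (Subgroup.center G) = 3)
    (hZtriv : ∀ z ∈ Subgroup.center G, ∀ p : Ω, z • p = p)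
    (φ : QuaternionGroup 2 →* G)
    (p₀ p₁ : Ω) (h01 : p₁ ≠ p₀) (hfix : ∀ y, φ y • p₀ = p₀)
    (hfree : ∀ y, ∀ p, p ≠ p₀ → φ y • p = p → y = 1) :
    ∃ (N : Subgroup (G ⧸ Subgroup.center G)) (_ : N.Normal), Nat.card N = 9 ∧
      (∀ x ∈ N, x ^ 3 = 1) ∧
      Nonempty ((G ⧸ Subgroup.center G) ⧸ N ≃* QuaternionGroup 2) := by
  classical
  have hQ : Nat.card (QuaternionGroup 2) = 8 := by
    rw [Nat.card_eq_fintype_card, QuaternionGroup.card]
  have hy8 : ∀ y : QuaternionGroup 2, y ^ 8 = 1 := fun y => by
    rw [← hQ]; exact pow_card_eq_one'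
  have hy9 : ∀ y : QuaternionGroup 2, y ^ 9 = y := fun y => by
    rw [pow_succ, hy8, one_mul]
  have hzc : ∀ z ∈ Subgroup.center G, ∀ g : G, g * z = z * g :=
    fun z hz g => Subgroup.mem_center_iff.mp hz g
  have hφZ : ∀ y, φ y ∈ Subgroup.center G → y = 1 :=
    fun y hy => hfree y p₁ h01 (hZtriv _ hy p₁)
  have hφinj : Function.Injective φ := by
    rw [injective_iff_map_eq_one]
    intro y hy
    exact hφZ y (by rw [hy]; exact Subgroup.one_mem _)
  -- the stabilizer of `p₀`
  have hjmem : ∀ yz : QuaternionGroup 2 × Subgroup.center G,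
      φ yz.1 * (yz.2 : G) ∈ MulAction.stabilizer G p₀ := by
    intro yz
    rw [MulAction.mem_stabilizer_iff, mul_smul, hZtriv _ yz.2.2, hfix]
  have hjinj : Function.Injective (fun yz : QuaternionGroup 2 × Subgroup.center G =>
      (⟨φ yz.1 * (yz.2 : G), hjmem yz⟩ : MulAction.stabilizer G p₀)) := by
    rintro ⟨y, z⟩ ⟨y', z'⟩ h
    have h1 : φ y * (z : G) = φ y' * (z' : G) := congrArg Subtype.val h
    have h2 : φ (y'⁻¹ * y) = (z' : G) * (z : G)⁻¹ := by
      rw [map_mul, map_inv, eq_mul_inv_iff_mul_eq, mul_assoc, h1, inv_mul_cancel_left]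
    have h3 : y'⁻¹ * y = 1 := hφZ _ (by
      rw [h2]; exact Subgroup.mul_mem _ z'.2 (Subgroup.inv_mem _ z.2))
    have h4 : y = y' := by
      rw [inv_mul_eq_one] at h3; exact h3.symm
    subst h4
    have h5 : (z : G) = z' := mul_left_cancel h1
    rw [Subtype.ext h5]
  have hkinj : Function.Injective (fun o : Option (QuaternionGroup 2) =>
      match o with
      | none => p₀
      | some y => φ y • p₁) := by
    intro o o' h
    rcases o with _ | y <;> rcases o' with _ | y'
    · rfl
    · exfalso
      apply h01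
      have h1 : p₀ = φ y' • p₁ := h
      have h2 : (φ y')⁻¹ • p₀ = p₁ := by rw [h1, inv_smul_smul]
      rw [← h2, ← map_inv, hfix]
    · exfalso
      apply h01
      have h1 : φ y • p₁ = p₀ := h
      have h2 : (φ y)⁻¹ • p₀ = p₁ := by rw [← h1, inv_smul_smul]
      rw [← h2, ← map_inv, hfix]
    · have h1 : φ y • p₁ = φ y' • p₁ := h
      have h2 : φ (y'⁻¹ * y) • p₁ = p₁ := by
        rw [map_mul, map_inv, mul_smul, h1, inv_smul_smul]
      have h3 := hfree _ p₁ h01 h2
      rw [inv_mul_eq_one] at h3
      rw [h3]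
  have hS24 : 24 ≤ Nat.card (MulAction.stabilizer G p₀) := by
    have := Nat.card_le_card_of_injective _ hjinj
    rwa [Nat.card_prod, hQ, hZ] at this
  have hΩ9 : 9 ≤ Nat.card Ω := by
    have := Nat.card_le_card_of_injective _ hkinj
    rwa [Finite.card_option, hQ] at this
  have hidx := MulAction.index_stabilizer_of_transitive G p₀
  have hci := Subgroup.card_mul_index (MulAction.stabilizer G p₀)
  rw [hidx, hG] at hci
  have hΩ : Nat.card Ω = 9 := by
    have h1 : 24 * Nat.card Ω ≤ 216 := by
      calc 24 * Nat.card Ω ≤ Nat.card (MulAction.stabilizer G p₀) * Nat.card Ω :=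
            Nat.mul_le_mul_right _ hS24
        _ = 216 := hci
    omega
  have hS : Nat.card (MulAction.stabilizer G p₀) = 24 := by
    rw [hΩ] at hci; omega
  have hjbij := hjinj.bijective_of_nat_card_le (by rw [Nat.card_prod, hQ, hZ, hS])
  have hS₀ : ∀ x : G, x • p₀ = p₀ → ∃ y, ∃ z ∈ Subgroup.center G, x = φ y * z := by
    intro x hx
    obtain ⟨⟨y, z⟩, h⟩ := hjbij.2 ⟨x, hx⟩
    exact ⟨y, z, z.2, (congrArg Subtype.val h).symm⟩
  have hconj : ∀ x g z : G, z ∈ Subgroup.center G → g⁻¹ * x * g = z →
      x ∈ Subgroup.center G := by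
    intro x g z hz h
    have h3 : x = g * (g⁻¹ * x * g) * g⁻¹ := by group
    rw [h3, h, hzc z hz g, mul_inv_cancel_right]
    exact hz
  -- two fixed points force centrality
  have hK : ∀ x : G, ∀ p p' : Ω, x • p = p → x • p' = p' → p ≠ p' →
      x ∈ Subgroup.center G := by
    intro x p p' hp hp' hne
    obtain ⟨g, rfl⟩ := MulAction.exists_smul_eq G p₀ p
    obtain ⟨y, z, hz, hxyz⟩ := hS₀ (g⁻¹ * x * g) (by
      rw [mul_smul, mul_smul, hp, inv_smul_smul])
    have h1 : φ y • (g⁻¹ • p') = g⁻¹ • p' := by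
      have h : (g⁻¹ * x * g) • (g⁻¹ • p') = g⁻¹ • p' := by
        rw [mul_smul, smul_inv_smul, mul_smul, hp']
      rw [hxyz, mul_smul, hZtriv z hz] at h
      exact h
    have h2 : g⁻¹ • p' ≠ p₀ := by
      intro h; apply hne; rw [← h, smul_inv_smul]
    have hy := hfree y _ h2 h1
    rw [hy, map_one, one_mul] at hxyz
    exact hconj x g z hz hxyz
  -- a fixed point and ninth power central force centrality
  have hC : ∀ x : G, ∀ p : Ω, x • p = p → x ^ 9 ∈ Subgroup.center G →
      x ∈ Subgroup.center G := by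
    intro x p hp h9
    obtain ⟨g, rfl⟩ := MulAction.exists_smul_eq G p₀ p
    obtain ⟨y, z, hz, hxyz⟩ := hS₀ (g⁻¹ * x * g) (by
      rw [mul_smul, mul_smul, hp, inv_smul_smul])
    have h1 : (g⁻¹ * x * g) ^ 9 = x ^ 9 := by
      have e1 : (g⁻¹ * x * g) ^ 9 = g⁻¹ * x ^ 9 * g := by
        have := conj_pow (a := g⁻¹) (b := x) (i := 9)
        rwa [inv_inv] at this
      rw [e1, mul_assoc, ← hzc _ h9 g, inv_mul_cancel_left]
    have h2 : (φ y * z) ^ 9 = φ y * z ^ 9 := by
      have hc : Commute (φ y) z := hzc z hz (φ y)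
      rw [hc.mul_pow, ← map_pow, hy9]
    have h4 : φ y ∈ Subgroup.center G := by
      have : φ y = x ^ 9 * (z ^ 9)⁻¹ := by
        rw [← h1, hxyz, h2, mul_inv_cancel_right]
      rw [this]
      exact Subgroup.mul_mem _ h9 (Subgroup.inv_mem _ (Subgroup.pow_mem _ hz 9))
    have hy := hφZ y h4
    rw [hy, map_one, one_mul] at hxyz
    exact hconj x g z hz hxyz
  -- Burnside
  let _ : Fintype G := Fintype.ofFinite G
  let _ : Fintype Ω := Fintype.ofFinite Ω
  have hB := MulAction.sum_card_fixedBy_eq_card_orbits_mul_card_group G Ω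
  have horb : Fintype.card (Quotient (MulAction.orbitRel G Ω)) = 1 := by
    rw [Fintype.card_eq_one_iff]
    refine ⟨Quotient.mk _ p₀, fun q => ?_⟩
    induction q using Quotient.inductionOn with
    | h p =>
      apply Quotient.sound
      exact MulAction.exists_smul_eq G p₀ p
  rw [horb, one_mul, ← Nat.card_eq_fintype_card, hG] at hB
  have hcardP : Nat.card (G ⧸ Subgroup.center G) = 72 := by
    have := Subgroup.card_eq_card_quotient_mul_card_subgroup (Subgroup.center G)
    rw [hG, hZ] at this
    omega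
  have hmkZ : ∀ x : G, (x : G ⧸ Subgroup.center G) = 1 ↔ x ∈ Subgroup.center G :=
    fun x => QuotientGroup.eq_one_iff x
  have hpow9 : ∀ N' : Subgroup (G ⧸ Subgroup.center G), Nat.card N' = 9 → ∀ x : G,
      (x : G ⧸ Subgroup.center G) ∈ N' → x ^ 9 ∈ Subgroup.center G := by
    intro N' hN' x hx
    have h1 := pow_card_eq_one' (G := N') (x := ⟨_, hx⟩)
    rw [hN'] at h1
    have h2 : (x : G ⧸ Subgroup.center G) ^ 9 = 1 := congrArg Subtype.val h1
    rw [← hmkZ]
    exact h2
  -- uniqueness of the subgroup of order nine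
  have hU : ∀ N' : Subgroup (G ⧸ Subgroup.center G), Nat.card N' = 9 → ∀ x : G,
      ((x : G ⧸ Subgroup.center G) ∈ N' ↔
        Fintype.card (MulAction.fixedBy Ω x) ≠ 1) := by
    intro N' hN'
    have hZN : ∀ x : G, x ∈ Subgroup.center G → (x : G ⧸ Subgroup.center G) ∈ N' := by
      intro x hx
      rw [(hmkZ x).mpr hx]
      exact Subgroup.one_mem _
    have hP' : Nat.card (N'.comap (QuotientGroup.mk' (Subgroup.center G))) = 27 := by
      have h1 := Subgroup.index_comap_of_surjective N'
        (QuotientGroup.mk'_surjective (Subgroup.center G))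
      have h2 := Subgroup.card_mul_index N'
      rw [hN', hcardP] at h2
      have h3 := Subgroup.card_mul_index (N'.comap (QuotientGroup.mk' (Subgroup.center G)))
      rw [h1, hG] at h3
      have h4 : N'.index = 8 := by omega
      rw [h4] at h3
      omega
    obtain ⟨b, hb⟩ : ∃ b : G → ℕ, b = fun x =>
        if x ∈ Subgroup.center G then 9
        else if (x : G ⧸ Subgroup.center G) ∈ N' then 0 else 1 := ⟨_, rfl⟩
    have hle : ∀ x ∈ (Finset.univ : Finset G),
        Fintype.card (MulAction.fixedBy Ω x) ≤ b x := by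
      intro x _
      rw [hb]
      by_cases hx : x ∈ Subgroup.center G
      · simp only [hx, if_true]
        calc Fintype.card (MulAction.fixedBy Ω x) ≤ Fintype.card Ω :=
              Fintype.card_subtype_le _
          _ = 9 := by rw [← Nat.card_eq_fintype_card, hΩ]
      · by_cases hx' : (x : G ⧸ Subgroup.center G) ∈ N'
        · simp only [hx, hx', if_true, if_false]
          rw [Nat.le_zero, Fintype.card_eq_zero_iff]
          constructor
          rintro ⟨p, hp⟩
          exact hx (hC x p hp (hpow9 N' hN' x hx'))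
        · simp only [hx, hx', if_false]
          rw [Fintype.card_le_one_iff_subsingleton]
          constructor
          rintro ⟨p, hp⟩ ⟨p', hp'⟩
          by_contra hne
          exact hx (hK x p p' hp hp' (fun h => hne (Subtype.ext h)))
    have hsum : ∑ x : G, b x = 216 := by
      have e1 : ∀ x : G, b x = (if x ∈ Subgroup.center G then 9 else 0) +
          (if x ∈ N'.comap (QuotientGroup.mk' (Subgroup.center G)) then 0 else 1) := by
        intro x
        rw [hb]
        by_cases hx : x ∈ Subgroup.center G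
        · have : x ∈ N'.comap (QuotientGroup.mk' (Subgroup.center G)) := hZN x hx
          simp [hx, this]
        · by_cases hx' : (x : G ⧸ Subgroup.center G) ∈ N'
          · have : x ∈ N'.comap (QuotientGroup.mk' (Subgroup.center G)) := hx'
            simp [hx, hx', this]
          · have : x ∉ N'.comap (QuotientGroup.mk' (Subgroup.center G)) := hx'
            simp [hx, hx', this]
      rw [Finset.sum_congr rfl (fun x _ => e1 x), Finset.sum_add_distrib]
      have e2 : ∑ x : G, (if x ∈ Subgroup.center G then 9 else 0) = 27 := by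
        rw [Finset.sum_ite, Finset.sum_const, Finset.sum_const_zero, add_zero, smul_eq_mul,
          ← Fintype.card_subtype]
        have : Fintype.card {x : G // x ∈ Subgroup.center G} = 3 := by
          rw [← Nat.card_eq_fintype_card]; exact hZ
        rw [this]
      have e3 : ∑ x : G,
          (if x ∈ N'.comap (QuotientGroup.mk' (Subgroup.center G)) then 0 else 1) = 189 := by
        rw [Finset.sum_ite, Finset.sum_const, Finset.sum_const, smul_zero, zero_add, smul_eq_mul,
          mul_one, ← Fintype.card_subtype]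
        have h1 : Fintype.card {x : G // x ∈ N'.comap (QuotientGroup.mk' (Subgroup.center G))}
            = 27 := by
          rw [← Nat.card_eq_fintype_card]; exact hP'
        have h2 := Fintype.card_subtype_compl
          (fun x : G => x ∈ N'.comap (QuotientGroup.mk' (Subgroup.center G)))
        rw [h2, h1, ← Nat.card_eq_fintype_card, hG]
      rw [e2, e3]
    have heq := (Finset.sum_eq_sum_iff_of_le hle).mp (hB.trans hsum.symm)
    intro x
    have hx := heq x (Finset.mem_univ x)
    rw [hx, hb]
    by_cases h1 : x ∈ Subgroup.center G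
    · simp [h1, hZN x h1]
    · by_cases h2 : (x : G ⧸ Subgroup.center G) ∈ N'
      · simp [h1, h2]
      · simp [h1, h2]
  have huniq : ∀ N₁ N₂ : Subgroup (G ⧸ Subgroup.center G), Nat.card N₁ = 9 →
      Nat.card N₂ = 9 → N₁ = N₂ := by
    intro N₁ N₂ h1 h2
    ext u
    obtain ⟨x, rfl⟩ := QuotientGroup.mk_surjective u
    rw [hU N₁ h1, hU N₂ h2]
  have : Fact (Nat.Prime 3) := ⟨Nat.prime_three⟩
  obtain ⟨N, hN⟩ := Sylow.exists_subgroup_card_pow_prime (G := G ⧸ Subgroup.center G) 3
    (n := 2) (by rw [hcardP]; norm_num)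
  have hN9 : Nat.card N = 9 := by rw [hN]; norm_num
  have hNn : N.Normal := by
    constructor
    intro n hn g
    have h1 : Nat.card (N.map (MulAut.conj g).toMonoidHom) = 9 := by
      rw [Subgroup.card_map_of_injective (MulAut.conj g).injective]; exact hN9
    have h2 := huniq _ N h1 hN9
    rw [← h2]
    exact ⟨n, hn, by simp [MulAut.conj_apply]⟩
  refine ⟨N, hNn, hN9, ?_, ?_⟩
  · -- exponent three
    obtain ⟨u₀, hu₀⟩ := exists_prime_orderOf_dvd_card' (G := N) 3 (by rw [hN9]; norm_num)
    have hu₀1 : u₀ ≠ 1 := by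
      rintro rfl
      rw [orderOf_one] at hu₀
      norm_num at hu₀
    have hu₀3 : u₀ ^ 3 = 1 := by rw [← hu₀]; exact pow_orderOf_eq_one u₀
    obtain ⟨x₀, hx₀⟩ := QuotientGroup.mk_surjective (u₀ : G ⧸ Subgroup.center G)
    have hx₀N : (x₀ : G ⧸ Subgroup.center G) ∈ N := by rw [hx₀]; exact u₀.2
    have hx₀Z : x₀ ∉ Subgroup.center G := by
      intro h
      apply hu₀1
      apply Subtype.ext
      rw [← hx₀, (hmkZ x₀).mpr h]
      rfl
    have hx₀p : x₀ • p₀ ≠ p₀ := fun h => hx₀Z (hC x₀ p₀ h (hpow9 N hN9 x₀ hx₀N))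
    obtain ⟨f, hf⟩ : ∃ f : Option (QuaternionGroup 2) → N, f = fun o =>
        match o with
        | none => 1
        | some y => ⟨((φ y : G) : G ⧸ Subgroup.center G) * u₀ *
            ((φ y : G) : G ⧸ Subgroup.center G)⁻¹, hNn.conj_mem _ u₀.2 _⟩ := ⟨_, rfl⟩
    have hfinj : Function.Injective f := by
      intro o o' h
      rw [hf] at h
      rcases o with _ | y <;> rcases o' with _ | y'
      · rfl
      · exfalso
        apply hu₀1
        have h1 : (1 : G ⧸ Subgroup.center G) = ((φ y' : G) : G ⧸ Subgroup.center G) * u₀ *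
            ((φ y' : G) : G ⧸ Subgroup.center G)⁻¹ := congrArg Subtype.val h
        apply Subtype.ext
        have h2 : (u₀ : G ⧸ Subgroup.center G) =
            ((φ y' : G) : G ⧸ Subgroup.center G)⁻¹ * 1 *
              ((φ y' : G) : G ⧸ Subgroup.center G) := by
          rw [h1]; group
        rw [h2]; simp
      · exfalso
        apply hu₀1
        have h1 : ((φ y : G) : G ⧸ Subgroup.center G) * u₀ *
            ((φ y : G) : G ⧸ Subgroup.center G)⁻¹ = 1 := congrArg Subtype.val h
        apply Subtype.ext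
        have h2 : (u₀ : G ⧸ Subgroup.center G) =
            ((φ y : G) : G ⧸ Subgroup.center G)⁻¹ * 1 *
              ((φ y : G) : G ⧸ Subgroup.center G) := by
          rw [← h1]; group
        rw [h2]; simp
      · have h1 : ((φ y : G) : G ⧸ Subgroup.center G) * u₀ *
            ((φ y : G) : G ⧸ Subgroup.center G)⁻¹ =
            ((φ y' : G) : G ⧸ Subgroup.center G) * u₀ *
            ((φ y' : G) : G ⧸ Subgroup.center G)⁻¹ := congrArg Subtype.val h
        have h2 : ((φ (y'⁻¹ * y) * x₀ : G) : G ⧸ Subgroup.center G) =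
            ((x₀ * φ (y'⁻¹ * y) : G) : G ⧸ Subgroup.center G) := by
          simp only [map_mul, map_inv, QuotientGroup.mk_mul, QuotientGroup.mk_inv, hx₀]
          have h3 : ((φ y' : G) : G ⧸ Subgroup.center G)⁻¹ *
              (((φ y : G) : G ⧸ Subgroup.center G) * u₀ *
                ((φ y : G) : G ⧸ Subgroup.center G)⁻¹) * ((φ y : G) : G ⧸ Subgroup.center G)
              = ((φ y' : G) : G ⧸ Subgroup.center G)⁻¹ *
              (((φ y' : G) : G ⧸ Subgroup.center G) * u₀ *
                ((φ y' : G) : G ⧸ Subgroup.center G)⁻¹) *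
                ((φ y : G) : G ⧸ Subgroup.center G) := by rw [h1]
          have h4 : ((φ y' : G) : G ⧸ Subgroup.center G)⁻¹ *
              (((φ y : G) : G ⧸ Subgroup.center G) * u₀ *
                ((φ y : G) : G ⧸ Subgroup.center G)⁻¹) * ((φ y : G) : G ⧸ Subgroup.center G)
              = ((φ y' : G) : G ⧸ Subgroup.center G)⁻¹ *
                ((φ y : G) : G ⧸ Subgroup.center G) * u₀ := by group
          have h5 : ((φ y' : G) : G ⧸ Subgroup.center G)⁻¹ *
              (((φ y' : G) : G ⧸ Subgroup.center G) * u₀ *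
                ((φ y' : G) : G ⧸ Subgroup.center G)⁻¹) *
                ((φ y : G) : G ⧸ Subgroup.center G) =
              u₀ * (((φ y' : G) : G ⧸ Subgroup.center G)⁻¹ *
                ((φ y : G) : G ⧸ Subgroup.center G)) := by group
          rw [← h4, h3, h5]
        rw [QuotientGroup.eq] at h2
        obtain ⟨w, hw⟩ : ∃ w, w = y'⁻¹ * y := ⟨_, rfl⟩
        rw [← hw] at h2
        have h3 : φ w * x₀ = x₀ * φ w * ((φ w * x₀)⁻¹ * (x₀ * φ w))⁻¹ := by group
        have h4 : φ w • (x₀ • p₀) = x₀ • p₀ := by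
          rw [← mul_smul, h3, mul_smul, mul_smul,
            hZtriv _ (Subgroup.inv_mem _ h2), hfix]
        have h5 := hfree w _ hx₀p h4
        rw [hw, inv_mul_eq_one] at h5
        rw [h5]
    have hbij := hfinj.bijective_of_nat_card_le (by rw [hN9, Finite.card_option, hQ])
    intro u hu
    obtain ⟨o, ho⟩ := hbij.2 ⟨u, hu⟩
    rw [hf] at ho
    rcases o with _ | y
    · have h1 : (1 : G ⧸ Subgroup.center G) = u := congrArg Subtype.val ho
      rw [← h1, one_pow]
    · have h1 : ((φ y : G) : G ⧸ Subgroup.center G) * u₀ *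
          ((φ y : G) : G ⧸ Subgroup.center G)⁻¹ = u := congrArg Subtype.val ho
      have h2 : (u₀ : G ⧸ Subgroup.center G) ^ 3 = 1 := by
        have := congrArg Subtype.val hu₀3
        exact this
      rw [← h1, conj_pow, h2, mul_one, mul_inv_cancel]
  · -- the quotient
    obtain ⟨ψ, hψ⟩ : ∃ ψ : QuaternionGroup 2 →* (G ⧸ Subgroup.center G) ⧸ N,
        ψ = (QuotientGroup.mk' N).comp ((QuotientGroup.mk' (Subgroup.center G)).comp φ) :=
      ⟨_, rfl⟩
    have hψinj : Function.Injective ψ := by
      rw [injective_iff_map_eq_one]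
      intro y hy
      rw [hψ] at hy
      have h1 : ((φ y : G) : G ⧸ Subgroup.center G) ∈ N :=
        (QuotientGroup.eq_one_iff _).mp hy
      have h2 := hpow9 N hN9 _ h1
      rw [← map_pow, hy9] at h2
      exact hφZ y h2
    have hcard : Nat.card ((G ⧸ Subgroup.center G) ⧸ N) = 8 := by
      have := Subgroup.card_eq_card_quotient_mul_card_subgroup N
      rw [hcardP, hN9] at this
      omega
    have hbij := hψinj.bijective_of_nat_card_le (by rw [hcard, hQ])
    exact ⟨(MulEquiv.ofBijective ψ hbij).symm⟩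

end Cfsg.Agent.Lib.Helper7
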