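import Cfsg.Agent.Lib.Helper25.CoxOrder

set_option autoImplicit false

namespace Cfsg.Agent.Lib.Helper7.WeylC

open Cfsg.Agent.Lib.Helper25

/-! ### Centres of finite Coxeter groups through a faithful reflection action -/

section Generic

variable {l : ℕ} (M : CoxeterMatrix (Fin l)) (A : ℕ → ℕ → ℤ)
  (φ : M.Group →* Equiv.Perm (ℕ → ℤ))

/-- The reflection action of a Coxeter group on integer vectors, with the facts we need. -/
structure Setup : Prop where
  hφ : ∀ j : Fin l, φ (M.simple j) = reflPerm A j
  hA : ∀ j < l, A j j = 2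
  hA0 : ∀ k j, l ≤ j → A k j = 0
  hfaith : ∀ g : M.Group, (∀ i < l, φ g (unitF i) = unitF i) → g = 1

variable {M A φ}

theorem Setup.act_simple (S : Setup M A φ) (k : Fin l) (v : ℕ → ℤ) :
    φ (M.simple k) v = reflF A k v := by
  rw [S.hφ k, reflPerm_apply _ _ (S.hA k k.2)]

theorem Setup.act_add (S : Setup M A φ) (g : M.Group) :
    ∀ v w : ℕ → ℤ, φ g (v + w) = φ g v + φ g w := by
  refine M.toCoxeterSystem.simple_induction_left
    (p := fun g => ∀ v w : ℕ → ℤ, φ g (v + w) = φ g v + φ g w) g ?_ ?_
  · intro v w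
    simp
  · intro g i ih v w
    have hi : M.toCoxeterSystem.simple i = M.simple i := by simp
    rw [hi, map_mul, Equiv.Perm.mul_apply, Equiv.Perm.mul_apply, Equiv.Perm.mul_apply, ih,
      S.act_simple, S.act_simple, S.act_simple]
    funext j
    simp only [reflF, Pi.add_apply]
    ring

theorem Setup.act_hi (S : Setup M A φ) (g : M.Group) :
    ∀ (v : ℕ → ℤ) (j : ℕ), l ≤ j → φ g v j = v j := by
  refine M.toCoxeterSystem.simple_induction_left
    (p := fun g => ∀ (v : ℕ → ℤ) (j : ℕ), l ≤ j → φ g v j = v j) g ?_ ?_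
  · intro v j _
    simp
  · intro g i ih v j hj
    have hi : M.toCoxeterSystem.simple i = M.simple i := by simp
    rw [hi, map_mul, Equiv.Perm.mul_apply, S.act_simple]
    simp only [reflF]
    rw [S.hA0 i j hj, ih v j hj]
    ring

/-- The action of a group element as an additive map. -/
noncomputable def Setup.hom (S : Setup M A φ) (g : M.Group) : (ℕ → ℤ) →+ (ℕ → ℤ) :=
  AddMonoidHom.mk' (fun v => φ g v) (S.act_add g)

theorem Setup.hom_apply (S : Setup M A φ) (g : M.Group) (v : ℕ → ℤ) : S.hom g v = φ g v := rfl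

theorem Setup.act_zsmul (S : Setup M A φ) (g : M.Group) (c : ℤ) (v : ℕ → ℤ) :
    φ g (c • v) = c • φ g v := by
  rw [← S.hom_apply, ← S.hom_apply, map_zsmul]

theorem decomp (v : ℕ → ℤ) (hv : ∀ j, l ≤ j → v j = 0) :
    v = ∑ j ∈ Finset.range l, v j • unitF j := by
  funext k
  simp only [Finset.sum_apply, Pi.smul_apply, unitF, smul_eq_mul]
  by_cases hk : k < l
  · rw [Finset.sum_eq_single k]
    · simp
    · intro j _ hjk
      simp [Ne.symm hjk]
    · intro hk'
      exact absurd (Finset.mem_range.mpr hk) hk'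
  · rw [hv k (by omega)]
    symm
    apply Finset.sum_eq_zero
    intro j hj
    have : k ≠ j := by
      have := Finset.mem_range.mp hj
      omega
    simp [this]

/-- A group element acting diagonally on the unit vectors acts diagonally. -/
theorem Setup.diag_act (S : Setup M A φ) (g : M.Group) (d : ℕ → ℤ)
    (hd : ∀ j < l, φ g (unitF j) = d j • unitF j) (v : ℕ → ℤ) (hv : ∀ j, l ≤ j → v j = 0) :
    φ g v = fun j => d j * v j := by
  have h1 : φ g v = ∑ j ∈ Finset.range l, v j • (d j • unitF j) := by
    conv_lhs => rw [decomp v hv]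
    rw [← S.hom_apply, map_sum]
    apply Finset.sum_congr rfl
    intro j hj
    rw [map_zsmul, S.hom_apply, hd j (Finset.mem_range.mp hj)]
  rw [h1]
  funext k
  simp only [Finset.sum_apply, Pi.smul_apply, unitF, smul_eq_mul]
  by_cases hk : k < l
  · rw [Finset.sum_eq_single k]
    · simp
      ring
    · intro j _ hjk
      simp [Ne.symm hjk]
    · intro hk'
      exact absurd (Finset.mem_range.mpr hk) hk'
  · rw [hv k (by omega)]
    rw [mul_zero]
    apply Finset.sum_eq_zero
    intro j hj
    have : k ≠ j := by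
      have := Finset.mem_range.mp hj
      omega
    simp [this]

theorem Setup.central_diag (S : Setup M A φ) (z : M.Group) (hz : z ∈ Subgroup.center M.Group)
    (i : ℕ) (hi : i < l) : φ z (unitF i) = (φ z (unitF i) i) • unitF i := by
  funext j
  simp only [Pi.smul_apply, unitF, smul_eq_mul]
  by_cases hji : j = i
  · subst hji
    simp
  · simp only [if_neg hji, mul_zero]
    by_cases hj : j < l
    · have hc : M.simple ⟨j, hj⟩ * z = z * M.simple ⟨j, hj⟩ :=
        Subgroup.mem_center_iff.mp hz _
      have h1 : φ (M.simple ⟨j, hj⟩) (φ z (unitF i)) = φ z (unitF i) := by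
        rw [← Equiv.Perm.mul_apply, ← map_mul, hc, map_mul, Equiv.Perm.mul_apply, S.act_simple]
        congr 1
        exact reflF_unitF A j i hji
      rw [S.act_simple] at h1
      have h2 := congrFun h1 j
      simp only [reflF] at h2
      have h3 := S.hA j hj
      rw [h3] at h2
      omega
    · rw [S.act_hi z _ j (by omega)]
      simp [unitF, hji]

theorem Setup.central_unit (S : Setup M A φ) (z : M.Group) (hz : z ∈ Subgroup.center M.Group)
    (i : ℕ) (hi : i < l) : φ z (unitF i) i = 1 ∨ φ z (unitF i) i = -1 := by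
  have hz' : z⁻¹ ∈ Subgroup.center M.Group := Subgroup.inv_mem _ hz
  have h1 := S.central_diag z hz i hi
  have h2 := S.central_diag z⁻¹ hz' i hi
  have h3 : φ z (φ z⁻¹ (unitF i)) = unitF i := by
    rw [← Equiv.Perm.mul_apply, ← map_mul, mul_inv_cancel, map_one]
    rfl
  rw [h2, S.act_zsmul, h1] at h3
  have h4 := congrFun h3 i
  simp only [Pi.smul_apply, unitF, smul_eq_mul, if_true, mul_one] at h4
  exact Int.isUnit_iff.mp (IsUnit.of_mul_eq_one _ (by rw [mul_comm]; exact h4))

theorem Setup.central_adj (S : Setup M A φ) (z : M.Group) (hz : z ∈ Subgroup.center M.Group)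
    (i k : ℕ) (hi : i < l) (hk : k < l) (hik : A i k ≠ 0) :
    φ z (unitF i) i = φ z (unitF k) k := by
  by_cases hki : k = i
  · rw [hki]
  have hc : M.simple ⟨i, hi⟩ * z = z * M.simple ⟨i, hi⟩ := Subgroup.mem_center_iff.mp hz _
  have hsupp : ∀ j, l ≤ j → reflF A i (unitF i) j = 0 := by
    intro j hj
    have : j ≠ i := by omega
    simp [reflF, unitF, this, S.hA0 i j hj]
  have h1 : φ z (reflF A i (unitF i)) = reflF A i (φ z (unitF i)) := by
    rw [← S.act_simple ⟨i, hi⟩, ← S.act_simple ⟨i, hi⟩, ← Equiv.Perm.mul_apply,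
      ← Equiv.Perm.mul_apply, ← map_mul, ← map_mul, hc]
  rw [S.diag_act z (fun j => φ z (unitF j) j) (fun j hj => S.central_diag z hz j hj) _ hsupp,
    S.central_diag z hz i hi] at h1
  have h2 := congrFun h1 k
  simp only [reflF, Pi.smul_apply, unitF, smul_eq_mul, if_neg hki, if_true, mul_zero, mul_one,
    zero_sub] at h2
  have h3 : (φ z (unitF i) i - φ z (unitF k) k) * A i k = 0 := by
    linarith
  rcases mul_eq_zero.mp h3 with h | h
  · omega
  · exact absurd h hik

/-- A central element acts as `±1`. -/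
theorem Setup.central_scalar (S : Setup M A φ) (hl : 0 < l)
    (hconn : ∀ d : ℕ → ℤ, (∀ i k, i < l → k < l → A i k ≠ 0 → d i = d k) → ∀ i < l, d i = d 0)
    (z : M.Group) (hz : z ∈ Subgroup.center M.Group) :
    ∃ c : ℤ, (c = 1 ∨ c = -1) ∧ ∀ i < l, φ z (unitF i) = c • unitF i := by
  refine ⟨φ z (unitF 0) 0, S.central_unit z hz 0 hl, fun i hi => ?_⟩
  have h := hconn (fun j => φ z (unitF j) j) (fun i k hi hk hik => S.central_adj z hz i k hi hk hik)
    i hi
  rw [S.central_diag z hz i hi]
  have h' : φ z (unitF i) i = φ z (unitF 0) 0 := h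
  rw [h']

theorem Setup.eq_of_act (S : Setup M A φ) (g h : M.Group)
    (hgh : ∀ i < l, φ g (unitF i) = φ h (unitF i)) : g = h := by
  have h1 : h⁻¹ * g = 1 := by
    apply S.hfaith
    intro i hi
    rw [map_mul, Equiv.Perm.mul_apply, hgh i hi, ← Equiv.Perm.mul_apply, ← map_mul,
      inv_mul_cancel, map_one]
    rfl
  exact (inv_mul_eq_one.mp h1).symm

/-- If some element acts as `-1`, the centre is generated by it and has order 2. -/
theorem Setup.center_neg (S : Setup M A φ) (hl : 0 < l)
    (hconn : ∀ d : ℕ → ℤ, (∀ i k, i < l → k < l → A i k ≠ 0 → d i = d k) → ∀ i < l, d i = d 0)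
    (z0 : M.Group) (hz0 : ∀ i < l, φ z0 (unitF i) = (-1 : ℤ) • unitF i) :
    Nat.card (Subgroup.center M.Group) = 2 ∧ Subgroup.center M.Group = Subgroup.zpowers z0 := by
  have hneg : ∀ v : ℕ → ℤ, (∀ j, l ≤ j → v j = 0) → φ z0 v = -v := by
    intro v hv
    rw [S.diag_act z0 (fun _ => -1) hz0 v hv]
    funext j
    simp
  have hcomm : ∀ k : Fin l, M.simple k * z0 = z0 * M.simple k := by
    intro k
    apply S.eq_of_act
    intro i hi
    rw [map_mul, map_mul, Equiv.Perm.mul_apply, Equiv.Perm.mul_apply, S.act_simple, S.act_simple,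
      hz0 i hi, hneg]
    · funext j
      simp only [reflF, Pi.smul_apply, Pi.neg_apply, smul_eq_mul]
      ring
    · intro j hj
      have h1 : j ≠ i := by omega
      simp [reflF, unitF, h1, S.hA0 k j hj]
  have hcen : z0 ∈ Subgroup.center M.Group := by
    rw [Subgroup.mem_center_iff]
    intro g
    refine M.toCoxeterSystem.simple_induction (p := fun g => g * z0 = z0 * g) g ?_ ?_ ?_
    · intro i
      have hi : M.toCoxeterSystem.simple i = M.simple i := by simp
      rw [hi]
      exact hcomm i
    · simp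
    · intro w w' hw hw'
      rw [mul_assoc, hw', ← mul_assoc, hw, mul_assoc]
  have hsq : z0 * z0 = 1 := by
    apply S.hfaith
    intro i hi
    rw [map_mul, Equiv.Perm.mul_apply, hz0 i hi, S.act_zsmul, hz0 i hi]
    simp
  have hne : z0 ≠ 1 := by
    intro h
    have h1 := hz0 0 hl
    rw [h, map_one] at h1
    have h2 := congrFun h1 0
    simp [unitF] at h2
  have hord : orderOf z0 = 2 := by
    have : Fact (Nat.Prime 2) := ⟨Nat.prime_two⟩
    exact orderOf_eq_prime (by rw [pow_two]; exact hsq) hne
  have heq : Subgroup.center M.Group = Subgroup.zpowers z0 := by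
    apply le_antisymm
    · intro z hz
      obtain ⟨c, hc, hzc⟩ := S.central_scalar hl hconn z hz
      rcases hc with rfl | rfl
      · have : z = 1 := S.hfaith z (fun i hi => by rw [hzc i hi, one_smul])
        rw [this]
        exact one_mem _
      · have : z = z0 := S.eq_of_act z z0 (fun i hi => by rw [hzc i hi, hz0 i hi])
        rw [this]
        exact Subgroup.mem_zpowers z0
    · exact Subgroup.zpowers_le.mpr hcen
  refine ⟨?_, heq⟩
  rw [heq, Nat.card_zpowers, hord]

/-- If no element sends the first unit vector to its negative, the centre is trivial. -/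
theorem Setup.center_bot (S : Setup M A φ) (hl : 0 < l)
    (hconn : ∀ d : ℕ → ℤ, (∀ i k, i < l → k < l → A i k ≠ 0 → d i = d k) → ∀ i < l, d i = d 0)
    (hno : ∀ g : M.Group, φ g (unitF 0) ≠ (-1 : ℤ) • unitF 0) :
    Subgroup.center M.Group = ⊥ := by
  rw [Subgroup.eq_bot_iff_forall]
  intro z hz
  obtain ⟨c, hc, hzc⟩ := S.central_scalar hl hconn z hz
  rcases hc with rfl | rfl
  · exact S.hfaith z (fun i hi => by rw [hzc i hi, one_smul])
  · exact absurd (hzc 0 hl) (hno z)

end Generic

/-! ### Checkable certificates -/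

/-- Connectedness of the diagram through a parent list leading every node to node `0`. -/
def connOK (cart : List (List ℤ)) (l : ℕ) (par : List ℕ) : Bool :=
  (List.range l).all fun i =>
    decide (par.getD i 0 < l) &&
      (decide (par.getD i 0 = i) || decide (AF cart l i (par.getD i 0) ≠ 0)) &&
      decide ((fun x => par.getD x 0)^[l] i = 0)

theorem conn_of_OK (cart : List (List ℤ)) (l : ℕ) (par : List ℕ) (h : connOK cart l par = true)
    (d : ℕ → ℤ) (hd : ∀ i k, i < l → k < l → AF cart l i k ≠ 0 → d i = d k) :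
    ∀ i < l, d i = d 0 := by
  simp only [connOK, List.all_eq_true, List.mem_range, Bool.and_eq_true, Bool.or_eq_true,
    decide_eq_true_eq] at h
  have step : ∀ i < l, par.getD i 0 < l ∧ d (par.getD i 0) = d i := by
    intro i hi
    obtain ⟨⟨h1, h2⟩, _⟩ := h i hi
    refine ⟨h1, ?_⟩
    rcases h2 with h2 | h2
    · rw [h2]
    · exact (hd i _ hi h1 h2).symm
  have iter : ∀ n : ℕ, ∀ i < l, (fun x => par.getD x 0)^[n] i < l ∧
      d ((fun x => par.getD x 0)^[n] i) = d i := by
    intro n
    induction n with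
    | zero => intro i hi; exact ⟨hi, rfl⟩
    | succ n ih =>
      intro i hi
      rw [Function.iterate_succ_apply']
      obtain ⟨h1, h2⟩ := ih i hi
      obtain ⟨h3, h4⟩ := step _ h1
      exact ⟨h3, h4.trans h2⟩
  intro i hi
  have h1 := (iter l i hi).2
  rw [(h i hi).2] at h1
  exact h1.symm

/-- The negative of a unit vector as a list. -/
def negUnitL (l k : ℕ) : List ℤ := (List.range l).map fun j => if j = k then -1 else 0

theorem toF_negUnitL (l k : ℕ) (hk : k < l) : toF (negUnitL l k) = (-1 : ℤ) • unitF k := by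
  funext j
  simp only [toF, negUnitL, unitF, getD_map_range, Pi.smul_apply, smul_eq_mul]
  by_cases h : j < l
  · by_cases h2 : j = k
    · subst h2
      simp [h]
    · simp [h, h2]
  · have : j ≠ k := by omega
    simp [h, this]

/-- The check that the `d`-th power of the Coxeter element negates all unit vectors. -/
def negOK (cart : List (List ℤ)) (l d : ℕ) : Bool :=
  (List.range l).all fun i =>
    decide ((coxWord l d).foldl (fun v j => reflL cart l j v) (unitL l i) = negUnitL l i)

/-- The check that a list of vectors is closed under the reflections. -/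
def orbOK (cart : List (List ℤ)) (l : ℕ) (Λ : List (List ℤ)) : Bool :=
  Λ.all fun v => decide (v.length = l) &&
    (List.range l).all fun k => Λ.contains (reflL cart l k v)

/-- The list contains the first unit vector and not its negative. -/
def noNegOK (l : ℕ) (Λ : List (List ℤ)) : Bool :=
  Λ.contains (unitL l 0) && Λ.all fun v => differ l v (negUnitL l 0)

section Apply

variable {l : ℕ} (M : CoxeterMatrix (Fin l)) (ML : List (List ℕ)) (cart : List (List ℤ))
  (levels : List LevelData)

theorem setup_of_main (hlen : levels.length = l)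
    (hM : ∀ i j : Fin l, M i j = tbl ML i j)
    (hrelOK' : ((List.range l).all fun i => (List.range l).all fun j =>
      relOK (AF cart l) (tbl ML i j) i j) = true)
    (hchain : chainOK ML cart l 0 levels = true) :
    ∃ φ : M.Group →* Equiv.Perm (ℕ → ℤ), Setup M (AF cart l) φ := by
  obtain ⟨φ, hφ, hA, _, htriv⟩ := coxeter_main M ML cart levels hlen hM hrelOK' hchain
  refine ⟨φ, hφ, hA, ?_, htriv⟩
  intro k j hj
  simp [AF, Nat.not_lt.mpr hj]

/-- Centre of order 2, inside the cyclic group of the Coxeter element. -/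
theorem weyl_center_two (hlen : levels.length = l)
    (hM : ∀ i j : Fin l, M i j = tbl ML i j)
    (hrelOK' : ((List.range l).all fun i => (List.range l).all fun j =>
      relOK (AF cart l) (tbl ML i j) i j) = true)
    (hchain : chainOK ML cart l 0 levels = true)
    (hl : 0 < l) (par : List ℕ) (hpar : connOK cart l par = true)
    (d : ℕ) (hneg : negOK cart l d = true) :
    Nat.card (Subgroup.center M.Group) = 2 ∧
      Subgroup.center M.Group ≤ Subgroup.zpowers ((List.finRange l).map M.simple).prod := by
  obtain ⟨φ, S⟩ := setup_of_main M ML cart levels hlen hM hrelOK' hchain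
  have hz0 : ∀ i < l, φ (wprod (sOf M) (coxWord l d)) (unitF i) = (-1 : ℤ) • unitF i := by
    intro i hi
    have h1 := coxeter_act_word M cart φ S.hφ S.hA (coxWord l d) (coxWord_lt l d) (unitL l i)
      (length_unitL l i)
    simp only [negOK, List.all_eq_true, List.mem_range, decide_eq_true_eq] at hneg
    rw [hneg i hi, toF_unitL l i hi, toF_negUnitL l i hi, Equiv.Perm.inv_eq_iff_eq,
      S.act_zsmul] at h1
    have h2 : (-1 : ℤ) • unitF i = (-1 : ℤ) • ((-1 : ℤ) • φ (wprod (sOf M) (coxWord l d)) (unitF i)) :=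
      congrArg (fun v => (-1 : ℤ) • v) h1
    rw [smul_smul] at h2
    simpa using h2.symm
  obtain ⟨h1, h2⟩ := S.center_neg hl (conn_of_OK cart l par hpar) _ hz0
  refine ⟨h1, ?_⟩
  rw [h2, coxeter_prod_eq]
  apply Subgroup.zpowers_le.mpr
  have h3 : wprod (sOf M) (coxWord l d) = (wprod (sOf M) (List.range l)) ^ d :=
    wprod_replicate (sOf M) (List.range l) d
  rw [h3]
  exact Subgroup.pow_mem _ (Subgroup.mem_zpowers _) d

/-- Trivial centre. -/
theorem weyl_center_one (hlen : levels.length = l)
    (hM : ∀ i j : Fin l, M i j = tbl ML i j)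
    (hrelOK' : ((List.range l).all fun i => (List.range l).all fun j =>
      relOK (AF cart l) (tbl ML i j) i j) = true)
    (hchain : chainOK ML cart l 0 levels = true)
    (hl : 0 < l) (par : List ℕ) (hpar : connOK cart l par = true)
    (Λ : List (List ℤ)) (horb : orbOK cart l Λ = true) (hnn : noNegOK l Λ = true) :
    Nat.card (Subgroup.center M.Group) = 1 ∧
      Subgroup.center M.Group ≤ Subgroup.zpowers ((List.finRange l).map M.simple).prod := by
  obtain ⟨φ, S⟩ := setup_of_main M ML cart levels hlen hM hrelOK' hchain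
  simp only [orbOK, List.all_eq_true, Bool.and_eq_true, decide_eq_true_eq, List.mem_range,
    List.contains_iff_mem] at horb
  simp only [noNegOK, Bool.and_eq_true, List.all_eq_true, List.contains_iff_mem] at hnn
  have hclosed : ∀ g : M.Group, ∀ v ∈ Λ, ∃ v' ∈ Λ, φ g (toF v) = toF v' := by
    intro g
    refine M.toCoxeterSystem.simple_induction_left
      (p := fun g => ∀ v ∈ Λ, ∃ v' ∈ Λ, φ g (toF v) = toF v') g ?_ ?_
    · intro v hv
      exact ⟨v, hv, by simp⟩
    · intro g i ih v hv
      obtain ⟨v', hv', e⟩ := ih v hv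
      have hi : M.toCoxeterSystem.simple i = M.simple i := by simp
      refine ⟨reflL cart l i v', (horb v' hv').2 i i.2, ?_⟩
      rw [hi, map_mul, Equiv.Perm.mul_apply, e, S.act_simple,
        toF_reflL cart l i v' (horb v' hv').1]
  have hno : ∀ g : M.Group, φ g (unitF 0) ≠ (-1 : ℤ) • unitF 0 := by
    intro g hg
    obtain ⟨v', hv', e⟩ := hclosed g (unitL l 0) hnn.1
    rw [toF_unitL l 0 hl, hg, ← toF_negUnitL l 0 hl] at e
    exact differ_sound l v' (negUnitL l 0) (hnn.2 v' hv') e.symm
  have h := S.center_bot hl (conn_of_OK cart l par hpar) hno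
  rw [h]
  exact ⟨Subgroup.card_bot, bot_le⟩

end Apply

end Cfsg.Agent.Lib.Helper7.WeylC
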